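import Mathlib

set_option autoImplicit false

/-! # Ladder PI5 (S4635): definitions -/

namespace Cfsg.Agent.Lib.Helper83.PI5

open Classical in
/-- coefficient vector of `Γ_ψ = δ₀ ψ + ∑_{χ ∈ X} δ χ • χ` -/
noncomputable def gam {S : Type*} (X : Set S) (δ : S → ℤ) (δ₀ : ℤ) (ψ : S) : S → ℤ :=
  fun χ => if χ = ψ then δ₀ else if χ ∈ X then δ χ else 0

end Cfsg.Agent.Lib.Helper83.PI5
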