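import Cfsg.Agent.Lib.Helper82.CY2U.DefsB
import Cfsg.Agent.Lib.Helper83.PI5.Defs

set_option autoImplicit false
set_option linter.unusedSectionVars false

/-! # Ladder PI5 (S4635): the interfaces between the parts A/C (helper83), B, D -/

namespace Cfsg.Agent.Lib.Helper83.PI5

open scoped BigOperators
open Cfsg Cfsg.Agent.Lib.Helper82.CY2U

variable {G : Type*} [Group G] [Fintype G]

/-- the class function `∑ η, a η • η` -/
noncomputable def lin {H : Type*} [Group H] [Fintype (IrrCharacter H)] (a : IrrCharacter H → ℂ) :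
    H → ℂ := fun h => ∑ η : IrrCharacter H, a η * (η : H → ℂ) h

/-- INTERFACE (*): the signed bijection `(I, ε)` extends induction on the class functions of `ℂ c`
vanishing on the `p`-regular elements -/
def Star (p : ℕ) (H : Subgroup G) [Fintype (IrrCharacter H)] (c : Set (IrrCharacter H))
    (I : IrrCharacter H → IrrCharacter G) (ε : IrrCharacter H → ℤ) : Prop :=
  ∀ a ∈ KK p c, ∀ g : G,
    ∑ η : IrrCharacter H, a η * (ε η : ℂ) * (I η : G → ℂ) g = indFun H (lin a) g

/-- INTERFACE B1 + B2: the TI set `A` (in the application `A = AA p H P`, `H = N_G(Z)`) -/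
structure TIData (p : ℕ) (H : Subgroup G) [Fintype (IrrCharacter H)] (c : Set (IrrCharacter H))
    (A : Set G) : Prop where
  ti : ∀ x ∈ A, ∀ g : G, g * x * g⁻¹ ∈ A → g ∈ H
  cent : ∀ x ∈ A, Subgroup.centralizer ({x} : Set G) ≤ H
  cpart : ∀ x ∈ A, ∀ u : G, IsPPart p x u → Subgroup.centralizer ({u} : Set G) ≤ H
  supp : ∀ a ∈ KK p c, ∀ h : H, lin a h ≠ 0 → (h : G) ∈ A

end Cfsg.Agent.Lib.Helper83.PI5
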