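import Mathlib
import Cfsg.Agent.Lib.Helper83.PI5.Defs

set_option autoImplicit false
set_option linter.unusedSectionVars false
set_option linter.unusedVariables false

namespace Cfsg.Agent.Lib.Helper83.PI5

open scoped BigOperators

/-- an integer vector of norm two and coordinate sum zero is `1_a - 1_b` -/
theorem lat1_norm2 {S : Type*} [Fintype S] [DecidableEq S] (f : S → ℤ)
    (h2 : ∑ χ, f χ * f χ = 2) (h0 : ∑ χ, f χ = 0) :
    ∃ a b, a ≠ b ∧ ∀ χ, f χ = (if χ = a then 1 else 0) - (if χ = b then 1 else 0) := by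
  have hex : ∃ a0, f a0 ≠ 0 := by
    by_contra hcon
    push Not at hcon
    simp [hcon] at h2
  obtain ⟨a0, ha0⟩ := hex
  have hsplit := Finset.add_sum_erase Finset.univ (fun χ => f χ * f χ) (Finset.mem_univ a0)
  rw [h2] at hsplit
  have hnn : 0 ≤ ∑ χ ∈ Finset.univ.erase a0, f χ * f χ :=
    Finset.sum_nonneg (fun i _ => mul_self_nonneg _)
  have hA : f a0 = 1 ∨ f a0 = -1 := by
    have hle : f a0 * f a0 ≤ 2 := by linarith
    have h3 : -2 < f a0 ∧ f a0 < 2 := by constructor <;> nlinarith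
    obtain ⟨h4, h5⟩ := h3
    omega
  have ha1 : f a0 * f a0 = 1 := by
    rcases hA with h | h <;> rw [h] <;> norm_num
  have hrest : ∑ χ ∈ Finset.univ.erase a0, f χ * f χ = 1 := by linarith
  have hex2 : ∃ b0, b0 ≠ a0 ∧ f b0 ≠ 0 := by
    by_contra hcon
    push Not at hcon
    have : ∑ χ ∈ Finset.univ.erase a0, f χ * f χ = 0 :=
      Finset.sum_eq_zero (fun χ hχ => by rw [hcon χ (Finset.ne_of_mem_erase hχ)]; ring)
    omega
  obtain ⟨b0, hba, hb0⟩ := hex2
  have hmem : b0 ∈ Finset.univ.erase a0 := Finset.mem_erase.mpr ⟨hba, Finset.mem_univ _⟩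
  have hsplit2 := Finset.add_sum_erase (Finset.univ.erase a0) (fun χ => f χ * f χ) hmem
  rw [hrest] at hsplit2
  have hnn2 : 0 ≤ ∑ χ ∈ (Finset.univ.erase a0).erase b0, f χ * f χ :=
    Finset.sum_nonneg (fun i _ => mul_self_nonneg _)
  have hp2 : 0 < f b0 * f b0 := mul_self_pos.mpr hb0
  have hz : ∑ χ ∈ (Finset.univ.erase a0).erase b0, f χ * f χ = 0 := by
    omega
  have hother : ∀ χ, χ ≠ a0 → χ ≠ b0 → f χ = 0 := by
    intro χ h1 h2
    have := (Finset.sum_eq_zero_iff_of_nonneg (fun i _ => mul_self_nonneg (f i))).mp hz χ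
      (Finset.mem_erase.mpr ⟨h2, Finset.mem_erase.mpr ⟨h1, Finset.mem_univ _⟩⟩)
    exact mul_self_eq_zero.mp this
  have hsum : f a0 + f b0 = 0 := by
    have h5 : ∑ χ, f χ = f a0 + f b0 := by
      rw [← Finset.add_sum_erase Finset.univ f (Finset.mem_univ a0),
        ← Finset.add_sum_erase (Finset.univ.erase a0) f hmem]
      rw [Finset.sum_eq_zero (s := (Finset.univ.erase a0).erase b0) (f := f)]
      · ring
      · intro χ hχ
        have h6 := Finset.mem_erase.mp hχ
        exact hother χ (Finset.ne_of_mem_erase h6.2) h6.1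
    linarith
  rcases hA with hA | hA
  · refine ⟨a0, b0, hba.symm, ?_⟩
    intro χ
    by_cases h1 : χ = a0
    · subst h1
      rw [if_pos rfl, if_neg hba.symm, hA]; norm_num
    · by_cases h2 : χ = b0
      · subst h2
        rw [if_neg h1, if_pos rfl]; linarith
      · rw [if_neg h1, if_neg h2, hother χ h1 h2]; norm_num
  · refine ⟨b0, a0, hba, ?_⟩
    intro χ
    by_cases h1 : χ = a0
    · subst h1
      rw [if_pos rfl, if_neg hba.symm, hA]; norm_num
    · by_cases h2 : χ = b0
      · subst h2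
        rw [if_neg h1, if_pos rfl]; linarith
      · rw [if_neg h1, if_neg h2, hother χ h1 h2]; norm_num

theorem lat1_ip {S : Type*} [Fintype S] [DecidableEq S] (a b c d : S) :
    ∑ χ, (((if χ = a then 1 else 0) - (if χ = b then 1 else 0) : ℤ)
        * ((if χ = c then 1 else 0) - (if χ = d then 1 else 0)))
      = (if a = c then 1 else 0) - (if a = d then 1 else 0) - (if b = c then 1 else 0)
        + (if b = d then 1 else 0) := by
  simp only [sub_mul, mul_sub, ite_mul, one_mul, zero_mul, Finset.sum_sub_distrib,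
    Finset.sum_ite_eq', Finset.mem_univ, if_true]
  ring

theorem lat1_dich {S : Type*} [DecidableEq S] {a b c d : S} (hab : a ≠ b) (hcd : c ≠ d)
    (h : ((if a = c then 1 else 0) - (if a = d then 1 else 0) - (if b = c then 1 else 0)
        + (if b = d then 1 else 0) : ℤ) = 1) :
    (a = c ∧ b ≠ d) ∨ (a ≠ c ∧ b = d) := by
  by_cases h1 : a = c
  · by_cases h2 : b = d
    · subst h1; subst h2
      rw [if_pos rfl, if_pos rfl, if_neg hab, if_neg hab.symm] at h
      norm_num at h
    · exact Or.inl ⟨h1, h2⟩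
  · by_cases h2 : b = d
    · exact Or.inr ⟨h1, h2⟩
    · rw [if_neg h1, if_neg h2] at h
      split_ifs at h <;> omega

theorem lat1 {Y' S : Type*} [Fintype Y'] [Fintype S] [DecidableEq Y'] [DecidableEq S] [Nonempty Y']
    (v : Y' → S → ℤ) (sg : S → ℤ) (hsg : ∀ χ, sg χ = 1 ∨ sg χ = -1)
    (hz : ∀ η, ∑ χ, sg χ * v η χ = 0)
    (h : ∀ η η', ∑ χ, v η χ * v η' χ = 1 + if η = η' then 1 else 0) :
    ∃ (χs : S) (κ : ℤ) (ρ : Y' → S) (κ' : Y' → ℤ), (κ = 1 ∨ κ = -1) ∧
      (∀ η, κ' η = 1 ∨ κ' η = -1) ∧ Function.Injective ρ ∧ (∀ η, ρ η ≠ χs) ∧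
      ∀ η χ, v η χ = (if χ = χs then κ else 0) + (if χ = ρ η then κ' η else 0) := by
  classical
  have hsq : ∀ χ, sg χ * sg χ = 1 := fun χ => by
    rcases hsg χ with h | h <;> rw [h] <;> norm_num
  have hn : ∀ η, ∃ a b, a ≠ b ∧
      ∀ χ, sg χ * v η χ = (if χ = a then 1 else 0) - (if χ = b then 1 else 0) := by
    intro η
    apply lat1_norm2 (fun χ => sg χ * v η χ)
    · have h1 := h η η
      rw [if_pos rfl] at h1
      calc ∑ χ, (sg χ * v η χ) * (sg χ * v η χ) = ∑ χ, v η χ * v η χ := by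
            apply Finset.sum_congr rfl; intro χ _
            calc (sg χ * v η χ) * (sg χ * v η χ) = (sg χ * sg χ) * (v η χ * v η χ) := by ring
              _ = _ := by rw [hsq]; ring
        _ = 2 := by rw [h1]; norm_num
    · exact hz η
  choose hd tl hne hw using hn
  have hdich : ∀ η η', η ≠ η' →
      (hd η = hd η' ∧ tl η ≠ tl η') ∨ (hd η ≠ hd η' ∧ tl η = tl η') := by
    intro η η' hηη
    apply lat1_dich (hne η) (hne η')
    rw [← lat1_ip]
    have h1 := h η η'
    rw [if_neg hηη] at h1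
    calc _ = ∑ χ, (sg χ * v η χ) * (sg χ * v η' χ) := by
          apply Finset.sum_congr rfl; intro χ _; rw [hw, hw]
      _ = ∑ χ, v η χ * v η' χ := by
          apply Finset.sum_congr rfl; intro χ _
          calc (sg χ * v η χ) * (sg χ * v η' χ) = (sg χ * sg χ) * (v η χ * v η' χ) := by ring
            _ = _ := by rw [hsq]; ring
      _ = 1 := by rw [h1]; norm_num
  have hv : ∀ η χ, v η χ
      = sg χ * ((if χ = hd η then 1 else 0) - (if χ = tl η then 1 else 0)) := by
    intro η χ
    rw [← hw, ← mul_assoc, hsq, one_mul]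
  obtain ⟨η0⟩ := ‹Nonempty Y'›
  have hstar : (∀ η, hd η = hd η0) ∨ (∀ η, tl η = tl η0) := by
    by_cases hex : ∃ η1, η1 ≠ η0 ∧ hd η1 = hd η0
    · obtain ⟨η1, h10, hh1⟩ := hex
      left
      intro η
      by_contra hcon
      have hη0 : η ≠ η0 := fun hh => hcon (by rw [hh])
      have hη1 : η ≠ η1 := fun hh => hcon (by rw [hh, hh1])
      have t0 : tl η = tl η0 := by
        rcases hdich η η0 hη0 with ⟨x, _⟩ | ⟨_, x⟩
        · exact absurd x hcon
        · exact x
      have t1 : tl η = tl η1 := by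
        rcases hdich η η1 hη1 with ⟨x, _⟩ | ⟨_, x⟩
        · exact absurd (x.trans hh1) hcon
        · exact x
      rcases hdich η1 η0 h10 with ⟨_, x⟩ | ⟨x, _⟩
      · exact x (t1.symm.trans t0)
      · exact x hh1
    · right
      push Not at hex
      intro η
      by_cases hη : η = η0
      · rw [hη]
      rcases hdich η η0 hη with ⟨x, _⟩ | ⟨_, x⟩
      · exact absurd x (hex η hη)
      · exact x
  rcases hstar with hA | hB
  · refine ⟨hd η0, sg (hd η0), tl, fun η => - sg (tl η), hsg _, ?_, ?_, ?_, ?_⟩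
    · intro η
      rcases hsg (tl η) with h | h <;> simp [h]
    · intro η η' hρ
      by_contra hηη
      rcases hdich η η' hηη with ⟨_, x⟩ | ⟨x, _⟩
      · exact x hρ
      · exact x ((hA η).trans (hA η').symm)
    · intro η hh
      exact hne η ((hA η).trans hh.symm)
    · intro η χ
      rw [hv, hA η]
      beta_reduce
      split_ifs with h1 h2 h2
      · rw [← h1, ← h2]; ring
      · rw [← h1]; ring
      · rw [← h2]; ring
      · ring
  · refine ⟨tl η0, - sg (tl η0), hd, fun η => sg (hd η), ?_, fun η => hsg _, ?_, ?_, ?_⟩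
    · rcases hsg (tl η0) with h | h <;> simp [h]
    · intro η η' hρ
      by_contra hηη
      rcases hdich η η' hηη with ⟨_, x⟩ | ⟨x, _⟩
      · exact x ((hB η).trans (hB η').symm)
      · exact x hρ
    · intro η hh
      exact hne η (hh.trans (hB η).symm)
    · intro η χ
      rw [hv, hB η]
      beta_reduce
      split_ifs with h1 h2 h2
      · rw [← h1, ← h2]; ring
      · rw [← h1]; ring
      · rw [← h2]; ring
      · ring

end Cfsg.Agent.Lib.Helper83.PI5
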