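import Mathlib
import Cfsg.Agent.Lib.Helper83.PI5.Defs
import Cfsg.Agent.Lib.Helper83.PI5.LAT1

set_option autoImplicit false
set_option linter.unusedSectionVars false
set_option linter.unusedVariables false

namespace Cfsg.Agent.Lib.Helper83.PI5

open scoped BigOperators

theorem comb1_sq {a : ℤ} (h : a = 1 ∨ a = -1) : a * a = 1 := by
  rcases h with rfl | rfl <;> norm_num

theorem comb1_mul {a b : ℤ} (ha : a = 1 ∨ a = -1) (hb : b = 1 ∨ b = -1) : a * b = 1 ∨ a * b = -1 := by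
  rcases ha with rfl | rfl <;> rcases hb with rfl | rfl <;> norm_num

theorem comb1_ne {a : ℤ} (h : a = 1 ∨ a = -1) : a ≠ 0 := by
  rcases h with rfl | rfl <;> norm_num

open Classical in
/-- COMB1 (uses LAT1; `e = 1`, `t ≥ 1`). -/
theorem comb1 {S' S : Type*} [Fintype S'] [Fintype S] {c X' Y' : Set S'} {B X Y : Set S}
    {t : ℕ} (ht : 1 ≤ t) (hc : c = X' ∪ Y') (hd' : Disjoint X' Y') (hB : B = X ∪ Y)
    (hd : Disjoint X Y) (hX' : Nat.card X' = 1) (hX : Nat.card X = 1) (hY' : Nat.card Y' = t)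
    (hY : Nat.card Y = t) {δ' : S' → ℤ} {δ₀' : ℤ} {δ : S → ℤ} {δ₀ : ℤ}
    (hδ' : ∀ ξ ∈ X', δ' ξ = 1 ∨ δ' ξ = -1) (hδ₀' : δ₀' = 1 ∨ δ₀' = -1)
    (hδ : ∀ χ ∈ X, δ χ = 1 ∨ δ χ = -1) (hδ₀ : δ₀ = 1 ∨ δ₀ = -1) (v : S' → S → ℤ)
    (v1 : ∀ η ∈ Y', ∀ χ, χ ∉ B → v η χ = 0)
    (v2 : ∀ η ∈ Y', ∀ χ ∈ X, v η χ = δ χ * δ₀ * ∑ ψ, if ψ ∈ Y then v η ψ else 0)
    (v3 : ∀ η ∈ Y', ∀ η' ∈ Y', ∑ χ, v η χ * v η' χ = (1 : ℤ) + if η = η' then 1 else 0) :
    ∃ (I : S' → S) (ε : S' → ℤ), Set.BijOn I c B ∧ (∀ ζ ∈ c, ε ζ = 1 ∨ ε ζ = -1) ∧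
      ∀ η ∈ Y', ∀ ζ ∈ c, v η (I ζ) = ε ζ * gam X' δ' δ₀' η ζ := by
  -- the singletons
  obtain ⟨hsubX, ⟨⟨χ₀, hχ₀⟩⟩⟩ := Nat.card_eq_one_iff_unique.1 hX
  have hXu : ∀ χ ∈ X, χ = χ₀ := fun χ hχ =>
    congrArg Subtype.val (hsubX.elim (⟨χ, hχ⟩ : ↥X) ⟨χ₀, hχ₀⟩)
  obtain ⟨hsubX', ⟨⟨ξ, hξ⟩⟩⟩ := Nat.card_eq_one_iff_unique.1 hX'
  have hX'u : ∀ ζ ∈ X', ζ = ξ := fun ζ hζ =>
    congrArg Subtype.val (hsubX'.elim (⟨ζ, hζ⟩ : ↥X') ⟨ξ, hξ⟩)
  haveI hne : Nonempty ↥Y' := by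
    have : 0 < Nat.card ↥Y' := by omega
    exact (Nat.card_pos_iff.1 this).1
  obtain ⟨η₀⟩ := hne
  haveI : Nonempty ↥Y' := ⟨η₀⟩
  have hXY : ∀ χ, χ ∈ X → χ ∉ Y := fun χ h1 h2 => Set.disjoint_left.1 hd h1 h2
  have hXY' : ∀ ζ, ζ ∈ X' → ζ ∉ Y' := fun ζ h1 h2 => Set.disjoint_left.1 hd' h1 h2
  -- the sign function
  set sg : S → ℤ := fun χ => if χ ∈ X then δ χ else -δ₀ with hsgdef
  have hsg : ∀ χ, sg χ = 1 ∨ sg χ = -1 := by
    intro χ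
    simp only [hsgdef]
    split_ifs with h
    · exact hδ χ h
    · rcases hδ₀ with rfl | rfl <;> norm_num
  have hz : ∀ η : ↥Y', ∑ χ, sg χ * v η.1 χ = 0 := by
    intro η
    set T : ℤ := ∑ ψ, if ψ ∈ Y then v η.1 ψ else 0 with hT
    have e1 : ∀ χ, sg χ * v η.1 χ =
        (if χ = χ₀ then δ₀ * T else 0) + (-δ₀) * (if χ ∈ Y then v η.1 χ else 0) := by
      intro χ
      by_cases hχ : χ ∈ X
      · have h0 := hXu χ hχ
        rw [if_pos h0, if_neg (hXY χ hχ), v2 η.1 η.2 χ hχ]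
        simp only [hsgdef]
        rw [if_pos hχ, mul_zero, add_zero, ← hT, ← mul_assoc, ← mul_assoc, comb1_sq (hδ χ hχ), one_mul]
      · have h0 : χ ≠ χ₀ := fun h => hχ (h ▸ hχ₀)
        rw [if_neg h0, zero_add]
        simp only [hsgdef]
        rw [if_neg hχ]
        by_cases hy : χ ∈ Y
        · rw [if_pos hy]
        · rw [if_neg hy, v1 η.1 η.2 χ (by rw [hB]; exact fun h => h.elim hχ hy)]
    rw [Finset.sum_congr rfl (fun χ _ => e1 χ), Finset.sum_add_distrib, ← Finset.mul_sum, ← hT,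
      Finset.sum_ite_eq' Finset.univ χ₀ (fun _ => δ₀ * T), if_pos (Finset.mem_univ _)]
    ring
  have h3 : ∀ η η' : ↥Y', ∑ χ, v η.1 χ * v η'.1 χ = 1 + if η = η' then 1 else 0 := by
    intro η η'
    rw [v3 η.1 η.2 η'.1 η'.2]
    by_cases h : η = η'
    · rw [if_pos h, if_pos (congrArg Subtype.val h)]
    · rw [if_neg h, if_neg (fun h' => h (Subtype.ext h'))]
  obtain ⟨χs, κ, ρ, κ', hκ, hκ', hρinj, hρne, hv⟩ :=
    lat1 (fun (η : ↥Y') χ => v η.1 χ) sg hsg hz h3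
  have hvs : ∀ η : ↥Y', v η.1 χs = κ := by
    intro η
    rw [hv η χs, if_pos rfl, if_neg (fun h => hρne η h.symm), add_zero]
  have hvρ : ∀ η : ↥Y', v η.1 (ρ η) = κ' η := by
    intro η
    rw [hv η (ρ η), if_neg (hρne η), if_pos rfl, zero_add]
  have hχsB : χs ∈ B := by
    by_contra h
    exact comb1_ne hκ ((hvs η₀).symm.trans (v1 η₀.1 η₀.2 χs h))
  have hρB : ∀ η : ↥Y', ρ η ∈ B := by
    intro η
    by_contra h
    exact comb1_ne (hκ' η) ((hvρ η).symm.trans (v1 η.1 η.2 _ h))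
  refine ⟨fun ζ => if h : ζ ∈ Y' then ρ ⟨ζ, h⟩ else χs,
    fun ζ => if h : ζ ∈ Y' then κ' ⟨ζ, h⟩ * δ₀' else κ * δ' ζ, ?_, ?_, ?_⟩
  · have hmaps : Set.MapsTo (fun ζ => if h : ζ ∈ Y' then ρ ⟨ζ, h⟩ else χs) c B := by
      intro ζ _
      show (if h : ζ ∈ Y' then ρ ⟨ζ, h⟩ else χs) ∈ B
      split_ifs with h
      · exact hρB _
      · exact hχsB
    have hinj : Set.InjOn (fun ζ => if h : ζ ∈ Y' then ρ ⟨ζ, h⟩ else χs) c := by
      intro ζ hζ ζ' hζ' he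
      simp only at he
      rw [hc] at hζ hζ'
      by_cases h : ζ ∈ Y' <;> by_cases h' : ζ' ∈ Y'
      · rw [dif_pos h, dif_pos h'] at he
        exact congrArg Subtype.val (hρinj he)
      · rw [dif_pos h, dif_neg h'] at he
        exact absurd he (hρne _)
      · rw [dif_neg h, dif_pos h'] at he
        exact absurd he.symm (hρne _)
      · rw [hX'u ζ (hζ.resolve_right h), hX'u ζ' (hζ'.resolve_right h')]
    refine ⟨hmaps, hinj, ?_⟩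
    have hcardc : c.ncard = t + 1 := by
      rw [hc, Set.ncard_union_eq hd', ← Nat.card_coe_set_eq, ← Nat.card_coe_set_eq, hX', hY']
      ring
    have hcardB : B.ncard = t + 1 := by
      rw [hB, Set.ncard_union_eq hd, ← Nat.card_coe_set_eq, ← Nat.card_coe_set_eq, hX, hY]
      ring
    have himg : (fun ζ => if h : ζ ∈ Y' then ρ ⟨ζ, h⟩ else χs) '' c = B := by
      apply Set.eq_of_subset_of_ncard_le hmaps.image_subset
      rw [hinj.ncard_image, hcardc, hcardB]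
    exact himg.ge
  · intro ζ hζ
    show (if h : ζ ∈ Y' then κ' ⟨ζ, h⟩ * δ₀' else κ * δ' ζ) = 1 ∨
      (if h : ζ ∈ Y' then κ' ⟨ζ, h⟩ * δ₀' else κ * δ' ζ) = -1
    rw [hc] at hζ
    split_ifs with h
    · exact comb1_mul (hκ' _) hδ₀'
    · exact comb1_mul hκ (hδ' ζ (hζ.resolve_right h))
  · intro η hη ζ hζ
    show v η (if h : ζ ∈ Y' then ρ ⟨ζ, h⟩ else χs) =
      (if h : ζ ∈ Y' then κ' ⟨ζ, h⟩ * δ₀' else κ * δ' ζ) * gam X' δ' δ₀' η ζ
    rw [hc] at hζ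
    by_cases h : ζ ∈ Y'
    · rw [dif_pos h, dif_pos h]
      have hnx : ζ ∉ X' := fun hx => hXY' ζ hx h
      by_cases he : ζ = η
      · subst he
        have := hvρ ⟨ζ, h⟩
        simp only at this
        rw [this]
        simp only [gam, if_true]
        rw [mul_assoc, comb1_sq hδ₀', mul_one]
      · have e1 := hv ⟨η, hη⟩ (ρ ⟨ζ, h⟩)
        simp only at e1
        rw [e1, if_neg (hρne _), if_neg (fun hh => he (congrArg Subtype.val (hρinj hh)))]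
        simp only [gam]
        rw [if_neg he, if_neg hnx]
        ring
    · rw [dif_neg h, dif_neg h]
      have hx : ζ ∈ X' := hζ.resolve_right h
      have he : ζ ≠ η := fun hh => h (hh ▸ hη)
      have := hvs ⟨η, hη⟩
      simp only at this
      rw [this]
      simp only [gam]
      rw [if_neg he, if_pos hx, mul_assoc, comb1_sq (hδ' ζ hx), mul_one]

end Cfsg.Agent.Lib.Helper83.PI5
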