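import Mathlib
import Cfsg.Agent.Lib.Helper83.PI5.Defs

set_option autoImplicit false
set_option linter.unusedSectionVars false
set_option linter.unusedVariables false

namespace Cfsg.Agent.Lib.Helper83.PI5

open scoped BigOperators

/-- an integer vector of norm one is a signed indicator -/
theorem latt_unit {Y : Type*} [Fintype Y] [DecidableEq Y] (f : Y → ℤ)
    (hf : ∑ ψ, f ψ * f ψ = 1) :
    ∃ ψ0, (∀ ψ, ψ ≠ ψ0 → f ψ = 0) ∧ f ψ0 * f ψ0 = 1 := by
  have hex : ∃ ψ0, f ψ0 ≠ 0 := by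
    by_contra hcon
    push Not at hcon
    simp [hcon] at hf
  obtain ⟨ψ0, h0⟩ := hex
  have hsplit : f ψ0 * f ψ0 + ∑ ψ ∈ Finset.univ.erase ψ0, f ψ * f ψ = 1 := by
    have := Finset.add_sum_erase Finset.univ (fun ψ => f ψ * f ψ) (Finset.mem_univ ψ0)
    rw [this]; exact hf
  have hpos : 1 ≤ f ψ0 * f ψ0 := by
    have : 0 < f ψ0 * f ψ0 := mul_self_pos.mpr h0
    linarith
  have hnn : 0 ≤ ∑ ψ ∈ Finset.univ.erase ψ0, f ψ * f ψ :=
    Finset.sum_nonneg (fun i _ => mul_self_nonneg _)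
  have hz : ∑ ψ ∈ Finset.univ.erase ψ0, f ψ * f ψ = 0 := by linarith
  refine ⟨ψ0, ?_, by linarith⟩
  intro ψ hψ
  have := (Finset.sum_eq_zero_iff_of_nonneg (fun i _ => mul_self_nonneg (f i))).mp hz ψ
    (Finset.mem_erase.mpr ⟨hψ, Finset.mem_univ _⟩)
  exact mul_self_eq_zero.mp this

/-- the Gram matrix `e J + I` is not the Gram matrix of `N` vectors of `ℤ^N` of coordinate sum zero -/
theorem latt_nozero {Y' Y : Type*} [Fintype Y'] [Fintype Y] [DecidableEq Y'] [DecidableEq Y]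
    (hcard : Fintype.card Y' = Fintype.card Y) (e : ℤ) (he : 2 ≤ e) (a : Y' → Y → ℤ) (η0 : Y')
    (hs0 : ∀ η, ∑ ψ, a η ψ = 0)
    (hG : ∀ η η', ∑ ψ, a η ψ * a η' ψ = e + if η = η' then 1 else 0) : False := by
  classical
  let φ : Y' ≃ Y := Fintype.equivOfCardEq hcard
  let A : Matrix Y' Y' ℤ := fun i j => a i (φ j)
  have hA1 : A.mulVec (fun _ => 1) = 0 := by
    funext i
    simp only [Matrix.mulVec, dotProduct, A, mul_one, Pi.zero_apply]
    rw [Equiv.sum_comp φ (fun j => a i j)]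
    exact hs0 i
  have hdet : A.det = 0 := Matrix.exists_mulVec_eq_zero_iff.mp
    ⟨fun _ => 1, by intro hh; have := congrFun hh η0; simp at this, hA1⟩
  obtain ⟨x, hx0, hx⟩ := Matrix.exists_vecMul_eq_zero_iff.mpr hdet
  have hxj : ∀ ψ, ∑ i, x i * a i ψ = 0 := by
    intro ψ
    have := congrFun hx (φ.symm ψ)
    simpa [Matrix.vecMul, dotProduct, A] using this
  have hsum : ∑ ψ, (∑ i, x i * a i ψ) * (∑ i, x i * a i ψ)
      = e * ((∑ i, x i) * (∑ i, x i)) + ∑ i, x i * x i := by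
    calc ∑ ψ, (∑ i, x i * a i ψ) * (∑ i, x i * a i ψ)
        = ∑ ψ, ∑ i, ∑ j, (x i * x j) * (a i ψ * a j ψ) := by
          apply Finset.sum_congr rfl; intro ψ _
          rw [Finset.sum_mul_sum]
          apply Finset.sum_congr rfl; intro i _; apply Finset.sum_congr rfl; intro j _; ring
      _ = ∑ i, ∑ j, (x i * x j) * ∑ ψ, a i ψ * a j ψ := by
          rw [Finset.sum_comm]
          apply Finset.sum_congr rfl; intro i _
          rw [Finset.sum_comm]
          apply Finset.sum_congr rfl; intro j _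
          rw [Finset.mul_sum]
      _ = ∑ i, ∑ j, ((x i * x j) * e + if i = j then x i * x j else 0) := by
          apply Finset.sum_congr rfl; intro i _; apply Finset.sum_congr rfl; intro j _
          rw [hG]; split_ifs <;> ring
      _ = e * ((∑ i, x i) * (∑ i, x i)) + ∑ i, x i * x i := by
          simp only [Finset.sum_add_distrib, Finset.sum_ite_eq, Finset.mem_univ, if_true]
          rw [Finset.sum_mul_sum, Finset.mul_sum]
          congr 1
          apply Finset.sum_congr rfl; intro i _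
          rw [Finset.mul_sum]; apply Finset.sum_congr rfl; intro j _; ring
  have hl : ∑ ψ, (∑ i, x i * a i ψ) * (∑ i, x i * a i ψ) = 0 := by
    apply Finset.sum_eq_zero; intro ψ _; rw [hxj ψ]; ring
  rw [hl] at hsum
  have h1 : 0 ≤ e * ((∑ i, x i) * (∑ i, x i)) :=
    mul_nonneg (by linarith) (mul_self_nonneg _)
  have h2 : 0 ≤ ∑ i, x i * x i := Finset.sum_nonneg (fun i _ => mul_self_nonneg _)
  have h3 : ∑ i, x i * x i = 0 := by linarith
  apply hx0
  funext i
  have := (Finset.sum_eq_zero_iff_of_nonneg (fun i _ => mul_self_nonneg (x i))).mp h3 i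
    (Finset.mem_univ _)
  exact mul_self_eq_zero.mp this

theorem latt {Y' Y : Type*} [Fintype Y'] [Fintype Y] [DecidableEq Y'] [DecidableEq Y]
    (hcard : Fintype.card Y' = Fintype.card Y) (e : ℤ) (he : 2 ≤ e) (a : Y' → Y → ℤ)
    (h : ∀ η η', e * (∑ ψ, a η ψ) * (∑ ψ, a η' ψ) + ∑ ψ, a η ψ * a η' ψ
      = e + if η = η' then 1 else 0) :
    ∃ (σ : ℤ) (π : Y' ≃ Y), (σ = 1 ∨ σ = -1) ∧ ∀ η ψ, a η ψ = if ψ = π η then σ else 0 := by
  classical
  by_cases hemp : IsEmpty Y'
  · exact ⟨1, Fintype.equivOfCardEq hcard, Or.inl rfl, fun η => (hemp.false η).elim⟩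
  rw [not_isEmpty_iff] at hemp
  obtain ⟨η0⟩ := hemp
  obtain ⟨s, hs⟩ : ∃ s : Y' → ℤ, ∀ η, ∑ ψ, a η ψ = s η := ⟨_, fun _ => rfl⟩
  have h' := h
  simp only [hs] at h'
  have hnn : ∀ η, 0 ≤ ∑ ψ, a η ψ * a η ψ :=
    fun η => Finset.sum_nonneg (fun i _ => mul_self_nonneg _)
  have hdiag : ∀ η, e * s η * s η + ∑ ψ, a η ψ * a η ψ = e + 1 := by
    intro η; have := h' η η; simpa using this
  have hoff : ∀ η η', η ≠ η' → e * s η * s η' + ∑ ψ, a η ψ * a η' ψ = e := by
    intro η η' hne; have := h' η η'; simpa [hne] using this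
  have hconst : ∀ η η', s η = s η' := by
    intro η η'
    by_cases hne : η = η'
    · rw [hne]
    by_contra hss
    have hd : ∑ ψ, (a η ψ - a η' ψ) * (a η ψ - a η' ψ)
        = (∑ ψ, a η ψ * a η ψ) - 2 * (∑ ψ, a η ψ * a η' ψ) + ∑ ψ, a η' ψ * a η' ψ := by
      rw [Finset.mul_sum, ← Finset.sum_sub_distrib, ← Finset.sum_add_distrib]
      apply Finset.sum_congr rfl; intro i _; ring
    have h1 := hdiag η
    have h2 := hdiag η'
    have h3 := hoff η η' hne
    have hkey : e * ((s η - s η') * (s η - s η'))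
        + ∑ ψ, (a η ψ - a η' ψ) * (a η ψ - a η' ψ) = 2 := by
      rw [hd]; linear_combination h1 + h2 - 2 * h3
    have hp : 0 < (s η - s η') * (s η - s η') := mul_self_pos.mpr (sub_ne_zero.mpr hss)
    have hp2 : 2 ≤ e * ((s η - s η') * (s η - s η')) := by nlinarith
    have hnn2 : 0 ≤ ∑ ψ, (a η ψ - a η' ψ) * (a η ψ - a η' ψ) :=
      Finset.sum_nonneg (fun i _ => mul_self_nonneg _)
    have hz : ∑ ψ, (a η ψ - a η' ψ) * (a η ψ - a η' ψ) = 0 := by linarith
    apply hss
    rw [← hs, ← hs]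
    apply Finset.sum_congr rfl
    intro ψ _
    have := (Finset.sum_eq_zero_iff_of_nonneg
      (fun i _ => mul_self_nonneg (a η i - a η' i))).mp hz ψ (Finset.mem_univ _)
    exact sub_eq_zero.mp (mul_self_eq_zero.mp this)
  obtain ⟨σ, hσ⟩ : ∃ σ, σ = s η0 := ⟨_, rfl⟩
  have hsσ : ∀ η, s η = σ := fun η => (hconst η η0).trans hσ.symm
  have hσ0 : σ ≠ 0 := by
    intro h0
    apply latt_nozero hcard e he a η0 (fun η => by rw [hs, hsσ, h0])
    intro η η'
    have := h' η η'
    rw [hsσ, hsσ, h0] at this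
    simpa using this
  have hσ1 : σ = 1 ∨ σ = -1 := by
    have h1 := hdiag η0
    have h2 := hnn η0
    rw [hsσ] at h1
    by_contra hcon
    push Not at hcon
    have : 2 ≤ σ ∨ σ ≤ -2 := by
      obtain ⟨c1, c2⟩ := hcon
      omega
    have h4 : 4 ≤ σ * σ := by
      rcases this with h3 | h3
      · nlinarith
      · nlinarith
    have h5 : e * 4 ≤ e * (σ * σ) := mul_le_mul_of_nonneg_left h4 (by linarith)
    rw [mul_assoc] at h1
    linarith
  have hσσ : σ * σ = 1 := by rcases hσ1 with h | h <;> rw [h] <;> norm_num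
  have hn1 : ∀ η, ∑ ψ, a η ψ * a η ψ = 1 := by
    intro η
    have := hdiag η
    rw [hsσ, mul_assoc, hσσ] at this
    linarith
  choose π hπ0 hπ1 using fun η => latt_unit (a η) (hn1 η)
  have hval : ∀ η, a η (π η) = σ := by
    intro η
    have : s η = a η (π η) := by
      rw [← hs]
      exact Finset.sum_eq_single (π η) (fun b _ hb => hπ0 η b hb)
        (fun h => absurd (Finset.mem_univ _) h)
    rw [← this]; exact hsσ η
  have hinj : Function.Injective π := by
    intro η η' hπ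
    by_contra hne
    have h3 := hoff η η' hne
    have : ∑ ψ, a η ψ * a η' ψ = σ * σ := by
      rw [Finset.sum_eq_single (π η) (fun b _ hb => by rw [hπ0 η b hb, zero_mul])
        (fun h => absurd (Finset.mem_univ _) h)]
      rw [hval η, hπ, hval η']
    rw [this, hsσ, hsσ, mul_assoc, hσσ] at h3
    linarith
  have hbij : Function.Bijective π :=
    (Fintype.bijective_iff_injective_and_card π).mpr ⟨hinj, hcard⟩
  refine ⟨σ, Equiv.ofBijective π hbij, hσ1, ?_⟩
  intro η ψ
  simp only [Equiv.ofBijective_apply]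
  split_ifs with hψ
  · rw [hψ]; exact hval η
  · exact hπ0 η ψ hψ

end Cfsg.Agent.Lib.Helper83.PI5
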