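import Mathlib
import Cfsg.Agent.Lib.Helper83.PI5.Defs
import Cfsg.Agent.Lib.Helper83.PI5.LATT

set_option autoImplicit false
set_option linter.unusedSectionVars false
set_option linter.unusedVariables false

namespace Cfsg.Agent.Lib.Helper83.PI5

open scoped BigOperators

theorem comb_sum_ite {S : Type*} [Fintype S] (Y : Set S) [DecidablePred (· ∈ Y)] [Fintype Y]
    (g : S → ℤ) : ∑ χ, (if χ ∈ Y then g χ else 0) = ∑ ψ : Y, g ψ.1 := by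
  rw [← Finset.sum_filter]
  exact Finset.sum_subtype _ (by simp) _

theorem comb_sq {x : ℤ} (h : x = 1 ∨ x = -1) : x * x = 1 := by
  rcases h with h | h <;> simp [h]

theorem comb_sgn_mul {x y : ℤ} (h : x = 1 ∨ x = -1) (h' : y = 1 ∨ y = -1) :
    x * y = 1 ∨ x * y = -1 := by
  rcases h with h | h <;> rcases h' with h' | h' <;> simp [h, h']

open Classical in
/-- COMB2 -/
theorem comb2 {S' S : Type*} [Fintype S'] [Fintype S] {c X' Y' : Set S'} {B X Y : Set S}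
    {e t : ℕ} (he : 2 ≤ e) (hc : c = X' ∪ Y') (hd' : Disjoint X' Y') (hB : B = X ∪ Y)
    (hd : Disjoint X Y) (hX' : Nat.card X' = e) (hX : Nat.card X = e) (hY' : Nat.card Y' = t)
    (hY : Nat.card Y = t) {δ' : S' → ℤ} {δ₀' : ℤ} {δ : S → ℤ} {δ₀ : ℤ}
    (hδ' : ∀ ξ ∈ X', δ' ξ = 1 ∨ δ' ξ = -1) (hδ₀' : δ₀' = 1 ∨ δ₀' = -1)
    (hδ : ∀ χ ∈ X, δ χ = 1 ∨ δ χ = -1) (hδ₀ : δ₀ = 1 ∨ δ₀ = -1) (v : S' → S → ℤ)
    (v1 : ∀ η ∈ Y', ∀ χ, χ ∉ B → v η χ = 0)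
    (v2 : ∀ η ∈ Y', ∀ χ ∈ X, v η χ = δ χ * δ₀ * ∑ ψ, if ψ ∈ Y then v η ψ else 0)
    (v3 : ∀ η ∈ Y', ∀ η' ∈ Y', ∑ χ, v η χ * v η' χ = (e : ℤ) + if η = η' then 1 else 0) :
    ∃ (I : S' → S) (ε : S' → ℤ), Set.BijOn I c B ∧ (∀ ζ ∈ c, ε ζ = 1 ∨ ε ζ = -1) ∧
      ∀ η ∈ Y', ∀ ζ ∈ c, v η (I ζ) = ε ζ * gam X' δ' δ₀' η ζ := by
  have hXY : ∀ χ, χ ∈ X → χ ∉ Y := fun χ h1 h2 => Set.disjoint_left.mp hd h1 h2
  have hXY' : ∀ χ, χ ∈ X' → χ ∉ Y' := fun χ h1 h2 => Set.disjoint_left.mp hd' h1 h2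
  have hcard : Fintype.card Y' = Fintype.card Y := by
    rw [← Nat.card_eq_fintype_card, ← Nat.card_eq_fintype_card, hY', hY]
  have hcX : (Fintype.card X : ℤ) = e := by
    rw [← Nat.card_eq_fintype_card, hX]
  have hs : ∀ η, (∑ ψ, if ψ ∈ Y then v η ψ else 0) = ∑ ψ : Y, v η ψ.1 :=
    fun η => comb_sum_ite Y (v η)
  have key : ∀ η ∈ Y', ∀ η' ∈ Y', ∑ χ, v η χ * v η' χ
      = (e : ℤ) * (∑ ψ : Y, v η ψ.1) * (∑ ψ : Y, v η' ψ.1) + ∑ ψ : Y, v η ψ.1 * v η' ψ.1 := by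
    intro η hη η' hη'
    have hpt : ∀ χ, v η χ * v η' χ
        = (if χ ∈ X then (∑ ψ : Y, v η ψ.1) * (∑ ψ : Y, v η' ψ.1) else 0)
          + (if χ ∈ Y then v η χ * v η' χ else 0) := by
      intro χ
      by_cases h1 : χ ∈ X
      · rw [if_pos h1, if_neg (hXY χ h1), v2 η hη χ h1, v2 η' hη' χ h1, hs, hs, add_zero]
        have a1 := comb_sq (hδ χ h1)
        have a2 := comb_sq hδ₀
        calc δ χ * δ₀ * (∑ ψ : Y, v η ψ.1) * (δ χ * δ₀ * ∑ ψ : Y, v η' ψ.1)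
            = (δ χ * δ χ) * (δ₀ * δ₀) * ((∑ ψ : Y, v η ψ.1) * ∑ ψ : Y, v η' ψ.1) := by ring
          _ = _ := by rw [a1, a2]; ring
      · by_cases h2 : χ ∈ Y
        · rw [if_neg h1, if_pos h2, zero_add]
        · rw [if_neg h1, if_neg h2, v1 η hη χ (by rw [hB]; exact fun h => h.elim h1 h2)]
          simp
    rw [Finset.sum_congr rfl (fun χ _ => hpt χ), Finset.sum_add_distrib,
      comb_sum_ite X (fun _ => (∑ ψ : Y, v η ψ.1) * (∑ ψ : Y, v η' ψ.1)),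
      comb_sum_ite Y (fun χ => v η χ * v η' χ), Finset.sum_const, Finset.card_univ,
      nsmul_eq_mul, hcX, mul_assoc]
  obtain ⟨σ, π, hσ, hπ⟩ := latt (Y' := Y') (Y := Y) hcard (e : ℤ) (by exact_mod_cast he)
    (fun η ψ => v η.1 ψ.1) (by
      intro η η'
      have h3 := v3 η.1 η.2 η'.1 η'.2
      rw [key η.1 η.2 η'.1 η'.2] at h3
      rw [h3]
      by_cases h : η = η'
      · rw [if_pos h, if_pos (congrArg Subtype.val h)]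
      · rw [if_neg h, if_neg (fun h' => h (Subtype.ext h'))])
  have hsσ : ∀ η (hη : η ∈ Y'), (∑ ψ, if ψ ∈ Y then v η ψ else 0) = σ := by
    intro η hη
    rw [hs]
    have : ∀ ψ : Y, v η ψ.1 = if ψ = π ⟨η, hη⟩ then σ else 0 := fun ψ => hπ ⟨η, hη⟩ ψ
    rw [Finset.sum_congr rfl (fun ψ _ => this ψ), Finset.sum_ite_eq' Finset.univ]
    simp
  have τ : X' ≃ X := Fintype.equivOfCardEq (by
    rw [← Nat.card_eq_fintype_card, ← Nat.card_eq_fintype_card, hX', hX])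
  have hXne : Nonempty X := (Nat.card_pos_iff.mp (by omega)).1
  obtain ⟨⟨x0, _⟩⟩ := hXne
  obtain ⟨I, hI⟩ : ∃ I : S' → S, I = fun ζ => if h : ζ ∈ Y' then (π ⟨ζ, h⟩ : S)
      else if h : ζ ∈ X' then (τ ⟨ζ, h⟩ : S) else x0 := ⟨_, rfl⟩
  have hIY : ∀ ζ (h : ζ ∈ Y'), I ζ = π ⟨ζ, h⟩ := by
    intro ζ h; rw [hI]; exact dif_pos h
  have hIX : ∀ ζ (h : ζ ∈ X'), I ζ = τ ⟨ζ, h⟩ := by
    intro ζ h; rw [hI]; simp only; rw [dif_neg (hXY' ζ h), dif_pos h]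
  have hIYm : ∀ ζ (h : ζ ∈ Y'), I ζ ∈ Y := fun ζ h => by rw [hIY ζ h]; exact (π ⟨ζ, h⟩).2
  have hIXm : ∀ ζ (h : ζ ∈ X'), I ζ ∈ X := fun ζ h => by rw [hIX ζ h]; exact (τ ⟨ζ, h⟩).2
  refine ⟨I, fun ζ => if ζ ∈ Y' then σ * δ₀' else σ * δ₀ * δ (I ζ) * δ' ζ, ⟨?_, ?_, ?_⟩, ?_, ?_⟩
  · intro ζ hζ
    rw [hc] at hζ
    rw [hB]
    rcases hζ with h | h
    · exact Or.inl (hIXm ζ h)
    · exact Or.inr (hIYm ζ h)
  · intro ζ₁ h₁ ζ₂ h₂ h12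
    rw [hc] at h₁ h₂
    rcases h₁ with h₁ | h₁ <;> rcases h₂ with h₂ | h₂
    · rw [hIX ζ₁ h₁, hIX ζ₂ h₂] at h12
      exact congrArg Subtype.val (τ.injective (Subtype.ext h12))
    · exact absurd (h12 ▸ hIYm ζ₂ h₂) (hXY _ (hIXm ζ₁ h₁))
    · exact absurd (h12 ▸ hIYm ζ₁ h₁) (hXY _ (hIXm ζ₂ h₂))
    · rw [hIY ζ₁ h₁, hIY ζ₂ h₂] at h12
      exact congrArg Subtype.val (π.injective (Subtype.ext h12))
  · intro χ hχ
    rw [hB] at hχ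
    rcases hχ with h | h
    · refine ⟨(τ.symm ⟨χ, h⟩ : S'), by rw [hc]; exact Or.inl (τ.symm ⟨χ, h⟩).2, ?_⟩
      rw [hIX _ (τ.symm ⟨χ, h⟩).2]
      simp
    · refine ⟨(π.symm ⟨χ, h⟩ : S'), by rw [hc]; exact Or.inr (π.symm ⟨χ, h⟩).2, ?_⟩
      rw [hIY _ (π.symm ⟨χ, h⟩).2]
      simp
  · intro ζ hζ
    rw [hc] at hζ
    simp only
    by_cases h : ζ ∈ Y'
    · rw [if_pos h]; exact comb_sgn_mul hσ hδ₀'
    · have hx : ζ ∈ X' := hζ.resolve_right h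
      rw [if_neg h]
      exact comb_sgn_mul (comb_sgn_mul (comb_sgn_mul hσ hδ₀) (hδ _ (hIXm ζ hx))) (hδ' ζ hx)
  · intro η hη ζ hζ
    rw [hc] at hζ
    simp only [gam]
    by_cases h : ζ ∈ Y'
    · rw [if_pos h, hIY ζ h]
      have h1 : v η (π ⟨ζ, h⟩ : S) = if π ⟨ζ, h⟩ = π ⟨η, hη⟩ then σ else 0 :=
        hπ ⟨η, hη⟩ (π ⟨ζ, h⟩)
      rw [h1]
      by_cases h2 : ζ = η
      · subst h2
        rw [if_pos rfl, if_pos rfl, mul_assoc, comb_sq hδ₀', mul_one]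
      · rw [if_neg (fun h' => h2 (congrArg Subtype.val (π.injective h'))), if_neg h2,
          if_neg (fun h' => hXY' ζ h' h), mul_zero]
    · have hx : ζ ∈ X' := hζ.resolve_right h
      have hne : ζ ≠ η := fun h' => h (h' ▸ hη)
      rw [if_neg h, if_neg hne, if_pos hx, v2 η hη _ (hIXm ζ hx), hsσ η hη]
      have a1 := comb_sq (hδ' ζ hx)
      calc δ (I ζ) * δ₀ * σ = σ * δ₀ * δ (I ζ) * 1 := by ring
        _ = σ * δ₀ * δ (I ζ) * (δ' ζ * δ' ζ) := by rw [a1]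
        _ = _ := by ring

end Cfsg.Agent.Lib.Helper83.PI5
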