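import Cfsg.Agent.Lib.Helper83.PI5.Iface
import Cfsg.Agent.Lib.Helper81.CY3.Defs
import Cfsg.Agent.Lib.Helper82.CY2U.KDIM
import Cfsg.Agent.Lib.Helper19.GramRigid

set_option autoImplicit false
set_option linter.unusedSectionVars false
set_option linter.unusedVariables false

namespace Cfsg.Agent.Lib.Helper83.PI5

open scoped BigOperators
open Cfsg Cfsg.Agent.Lib.Helper81 Cfsg.Agent.Lib.Helper82.CY2U

variable {p : ℕ} {G : Type*} [Group G]

/-- [GAMKK] -/
theorem gam_mem [Fintype (IrrCharacter G)] {B X Y : Set (IrrCharacter G)} {e t : ℕ}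
    {δ : IrrCharacter G → ℤ} {δ₀ : ℤ} (hs : CY3.Shape p B X Y e t δ δ₀) {ψ : IrrCharacter G}
    (hψ : ψ ∈ Y) : (fun χ => (gam X δ δ₀ ψ χ : ℂ)) ∈ KK p B := by
  classical
  have hψX : ψ ∉ X := fun h => Set.disjoint_left.1 hs.disj h hψ
  refine ⟨fun χ hχ => ?_, fun g hg => ?_⟩
  · have h1 : χ ≠ ψ := fun h => hχ (by rw [h, hs.union]; exact Or.inr hψ)
    have h2 : χ ∉ X := fun h => hχ (by rw [hs.union]; exact Or.inl h)
    simp [gam, h1, h2]
  · have h := hs.rel ψ hψ g hg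
    rw [finsum_mem_def, finsum_eq_sum_of_fintype] at h
    have h3 : ∀ χ : IrrCharacter G, (gam X δ δ₀ ψ χ : ℂ) * (χ : G → ℂ) g
        = (if χ = ψ then (δ₀ : ℂ) * (ψ : G → ℂ) g else 0)
          + X.indicator (fun χ => (δ χ : ℂ) * (χ : G → ℂ) g) χ := by
      intro χ
      by_cases h1 : χ = ψ
      · subst h1
        simp [gam, hψX]
      · by_cases h2 : χ ∈ X
        · simp [gam, h1, h2]
        · simp [gam, h1, h2]
    simp only [h3]
    rw [Finset.sum_add_distrib, Finset.sum_ite_eq' Finset.univ ψ, if_pos (Finset.mem_univ _)]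
    exact h

end Cfsg.Agent.Lib.Helper83.PI5
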