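import Mathlib
import Cfsg.Agent.Lib.Helper83.PI5.Defs

set_option autoImplicit false
set_option linter.unusedSectionVars false
set_option linter.unusedVariables false

namespace Cfsg.Agent.Lib.Helper83.PI5

open scoped BigOperators

open Classical in
/-- [GRAM] -/
theorem gam_gram {S : Type*} [Fintype S] {X Y : Set S} (hd : Disjoint X Y) {e : ℕ}
    (hX : Nat.card X = e) {δ : S → ℤ} {δ₀ : ℤ} (hδ : ∀ χ ∈ X, δ χ = 1 ∨ δ χ = -1)
    (hδ₀ : δ₀ = 1 ∨ δ₀ = -1) {η η' : S} (hη : η ∈ Y) (hη' : η' ∈ Y) :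
    ∑ ζ, gam X δ δ₀ η ζ * gam X δ δ₀ η' ζ = (e : ℤ) + if η = η' then 1 else 0 := by
  have hnX : ∀ ζ, ζ ∈ Y → ζ ∉ X := fun ζ hY hXm => Set.disjoint_left.mp hd hXm hY
  have h00 : δ₀ * δ₀ = 1 := by rcases hδ₀ with h | h <;> rw [h] <;> norm_num
  have hpt : ∀ ζ, gam X δ δ₀ η ζ * gam X δ δ₀ η' ζ
      = (if ζ = η then (if η = η' then 1 else 0) else 0) + (if ζ ∈ X then 1 else 0) := by
    intro ζ
    unfold gam
    by_cases h1 : ζ = η
    · subst h1
      have hx := hnX ζ hη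
      by_cases h2 : ζ = η'
      · simp only [if_pos h2, if_true, if_neg hx, h00]; norm_num
      · simp only [if_neg h2, if_true, if_neg hx]; norm_num
    · by_cases h3 : ζ ∈ X
      · have h4 : ζ ≠ η' := fun h => hnX η' hη' (h ▸ h3)
        simp only [if_neg h1, if_pos h3, if_neg h4]
        rcases hδ ζ h3 with h | h <;> rw [h] <;> norm_num
      · simp only [if_neg h1, if_neg h3]; norm_num
  have hc : ((Finset.univ.filter (fun ζ => ζ ∈ X)).card : ℤ) = e := by
    rw [← hX, Nat.card_eq_fintype_card, Fintype.card_subtype]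
  rw [Finset.sum_congr rfl (fun ζ _ => hpt ζ), Finset.sum_add_distrib, Finset.sum_ite_eq',
    if_pos (Finset.mem_univ _), Finset.sum_boole, hc]
  ring

end Cfsg.Agent.Lib.Helper83.PI5
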