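import Cfsg.Agent.Lib.Helper83.PI5.GAMKK

set_option autoImplicit false
set_option linter.unusedSectionVars false
set_option linter.unusedVariables false

namespace Cfsg.Agent.Lib.Helper83.PI5

open scoped BigOperators
open Cfsg Cfsg.Agent.Lib.Helper81 Cfsg.Agent.Lib.Helper82.CY2U

variable {p : ℕ} {G : Type*} [Group G]

open Classical in
/-- [KKB] -/
theorem kk_span [Finite G] [Fintype (IrrCharacter G)] {B X Y : Set (IrrCharacter G)} {e t : ℕ}
    {δ : IrrCharacter G → ℤ} {δ₀ : ℤ} (hs : CY3.Shape p B X Y e t δ δ₀)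
    (hr : blockRank p B = e) (hcard : Nat.card B = e + t) {a : IrrCharacter G → ℂ}
    (ha : a ∈ KK p B) :
    ∀ χ, a χ = ∑ ψ, if ψ ∈ Y then (δ₀ : ℂ) * a ψ * (gam X δ δ₀ ψ χ : ℂ) else 0 := by
  have hfr : Module.finrank ℂ (KK p B) = t := by
    letI : Fintype G := Fintype.ofFinite G
    have := finrank_KK p B
    omega
  let r : KK p B →ₗ[ℂ] (Y → ℂ) :=
    { toFun := fun a ψ => a.1 ψ.1, map_add' := fun _ _ => rfl, map_smul' := fun _ _ => rfl }
  have hgamY : ∀ ψ ∈ Y, ∀ ψ' ∈ Y, gam X δ δ₀ ψ ψ' = if ψ' = ψ then δ₀ else 0 := by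
    intro ψ hψ ψ' hψ'
    have : ψ' ∉ X := fun h => Set.disjoint_left.1 hs.disj h hψ'
    simp [gam, this]
  have hd2 : (δ₀ : ℂ) * δ₀ = 1 := by rcases hs.sign0 with h | h <;> simp [h]
  let s : (IrrCharacter G → ℂ) → (IrrCharacter G → ℂ) := fun f χ =>
    ∑ ψ, if ψ ∈ Y then (δ₀ : ℂ) * f ψ * (gam X δ δ₀ ψ χ : ℂ) else 0
  have hsK : ∀ f, s f ∈ KK p B := by
    intro f
    have h1 : s f = ∑ ψ, if ψ ∈ Y then ((δ₀ : ℂ) * f ψ) • (fun χ => (gam X δ δ₀ ψ χ : ℂ))
        else 0 := by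
      funext χ
      simp only [s, Finset.sum_apply]
      apply Finset.sum_congr rfl
      intro ψ _
      split_ifs <;> simp
    rw [h1]
    apply Submodule.sum_mem
    intro ψ _
    split_ifs with h
    · exact Submodule.smul_mem _ _ (gam_mem hs h)
    · exact Submodule.zero_mem _
  have hsY : ∀ f, ∀ ψ' ∈ Y, s f ψ' = f ψ' := by
    intro f ψ' hψ'
    simp only [s]
    rw [Finset.sum_eq_single ψ']
    · rw [if_pos hψ', hgamY ψ' hψ' ψ' hψ', if_pos rfl]
      linear_combination (f ψ') * hd2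
    · intro ψ _ hne
      split_ifs with h
      · rw [hgamY ψ h ψ' hψ', if_neg (Ne.symm hne)]
        simp
      · rfl
    · intro h
      exact absurd (Finset.mem_univ _) h
  have hsurj : Function.Surjective r := by
    intro f
    let F : IrrCharacter G → ℂ := fun χ => if h : χ ∈ Y then f ⟨χ, h⟩ else 0
    refine ⟨⟨s F, hsK F⟩, ?_⟩
    funext ψ
    show s F ψ.1 = f ψ
    rw [hsY F ψ.1 ψ.2]
    simp [F, ψ.2]
  have hfin2 : Module.finrank ℂ (KK p B) = Module.finrank ℂ (Y → ℂ) := by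
    rw [hfr, Module.finrank_fintype_fun_eq_card, ← Nat.card_eq_fintype_card, hs.cardY]
  have hinj : Function.Injective r :=
    (LinearMap.injective_iff_surjective_of_finrank_eq_finrank hfin2).2 hsurj
  have heq : (⟨a, ha⟩ : KK p B) = ⟨s a, hsK a⟩ := by
    apply hinj
    funext ψ
    show a ψ.1 = s a ψ.1
    rw [hsY a ψ.1 ψ.2]
  intro χ
  have := congrArg (fun z : KK p B => z.1 χ) heq
  exact this

open Classical in
/-- [KKB] second part -/
theorem kk_shape [Finite G] [Fintype (IrrCharacter G)] {B X Y : Set (IrrCharacter G)} {e t : ℕ}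
    {δ : IrrCharacter G → ℤ} {δ₀ : ℤ} (hs : CY3.Shape p B X Y e t δ δ₀)
    (hr : blockRank p B = e) (hcard : Nat.card B = e + t) {a : IrrCharacter G → ℂ}
    (ha : a ∈ KK p B) :
    ∀ χ ∈ X, a χ = (δ χ : ℂ) * (δ₀ : ℂ) * ∑ ψ, if ψ ∈ Y then a ψ else 0 := by
  intro χ hχ
  rw [kk_span hs hr hcard ha χ, Finset.mul_sum]
  apply Finset.sum_congr rfl
  intro ψ _
  split_ifs with h
  · have hne : χ ≠ ψ := fun h' => Set.disjoint_left.1 hs.disj hχ (h' ▸ h)
    simp only [gam, if_neg hne, if_pos hχ]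
    ring
  · simp

end Cfsg.Agent.Lib.Helper83.PI5
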