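import Mathlib
import Cfsg.Prelude.Def_Blocks
import Cfsg.Agent.Lib.Helper19.GramRigid
import Cfsg.Agent.Lib.Helper83.PI5.Defs

set_option autoImplicit false
set_option linter.unusedSectionVars false
set_option linter.unusedVariables false

namespace Cfsg.Agent.Lib.Helper83.PI5

open scoped BigOperators
open Cfsg

variable {G : Type*} [Group G]

open Classical in
/-- the light core of [STAR]: no `KK`, no `Shape`, `lin` unfolded -/
theorem star_core [Fintype G] (H : Subgroup G) [Fintype (IrrCharacter H)] [Fintype (IrrCharacter G)]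
    {c X' Y' : Set (IrrCharacter H)} {δ' : IrrCharacter H → ℤ} {δ₀' : ℤ}
    (hc : c = X' ∪ Y') {B : Set (IrrCharacter G)}
    {I : IrrCharacter H → IrrCharacter G} {ε : IrrCharacter H → ℤ} (hI : Set.BijOn I c B)
    (v : IrrCharacter H → IrrCharacter G → ℤ)
    (hv : ∀ η ∈ Y', ∀ g : G,
      indFun H (fun h => ∑ ζ : IrrCharacter H, (gam X' δ' δ₀' η ζ : ℂ) * (ζ : H → ℂ) h) g
      = ∑ χ : IrrCharacter G, (v η χ : ℂ) * (χ : G → ℂ) g)
    (v1 : ∀ η ∈ Y', ∀ χ, χ ∉ B → v η χ = 0)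
    (hvI : ∀ η ∈ Y', ∀ ζ ∈ c, v η (I ζ) = ε ζ * gam X' δ' δ₀' η ζ)
    (a : IrrCharacter H → ℂ)
    (hspan : ∀ χ, a χ = ∑ ψ, if ψ ∈ Y' then (δ₀' : ℂ) * a ψ * (gam X' δ' δ₀' ψ χ : ℂ) else 0)
    (g : G) :
    ∑ η : IrrCharacter H, a η * (ε η : ℂ) * (I η : G → ℂ) g
      = indFun H (fun h => ∑ η : IrrCharacter H, a η * (η : H → ℂ) h) g := by
  obtain ⟨coef, hcoef⟩ : ∃ coef : IrrCharacter H → ℂ,
      ∀ ψ, coef ψ = if ψ ∈ Y' then (δ₀' : ℂ) * a ψ else 0 := ⟨_, fun _ => rfl⟩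
  have ha : ∀ χ, a χ = ∑ ψ, coef ψ * (gam X' δ' δ₀' ψ χ : ℂ) := by
    intro χ
    rw [hspan χ]
    apply Finset.sum_congr rfl
    intro ψ _
    rw [hcoef]
    split_ifs <;> simp
  have hstep : ∀ η ∈ Y', ∑ ζ, (gam X' δ' δ₀' η ζ : ℂ) * (ε ζ : ℂ) * (I ζ : G → ℂ) g
      = indFun H (fun h => ∑ ζ : IrrCharacter H, (gam X' δ' δ₀' η ζ : ℂ) * (ζ : H → ℂ) h) g := by
    intro η hη
    rw [hv η hη g]
    have e1 : ∀ ζ, (gam X' δ' δ₀' η ζ : ℂ) * (ε ζ : ℂ) * (I ζ : G → ℂ) g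
        = if ζ ∈ c then (v η (I ζ) : ℂ) * (I ζ : G → ℂ) g else 0 := by
      intro ζ
      split_ifs with hζ
      · rw [hvI η hη ζ hζ]; push_cast; ring
      · have h0 : gam X' δ' δ₀' η ζ = 0 := by
          unfold gam
          have h1 : ζ ≠ η := fun h => hζ (by rw [h, hc]; exact Or.inr hη)
          have h2 : ζ ∉ X' := fun h => hζ (by rw [hc]; exact Or.inl h)
          rw [if_neg h1, if_neg h2]
        rw [h0]; simp
    have e2 : ∀ χ : IrrCharacter G, (v η χ : ℂ) * (χ : G → ℂ) g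
        = if χ ∈ B then (v η χ : ℂ) * (χ : G → ℂ) g else 0 := by
      intro χ
      split_ifs with hχ
      · rfl
      · rw [v1 η hη χ hχ]; simp
    rw [Finset.sum_congr rfl (fun ζ _ => e1 ζ), Finset.sum_congr rfl (fun χ _ => e2 χ),
      ← Finset.sum_filter, ← Finset.sum_filter]
    apply Finset.sum_nbij I
    · intro ζ hζ
      simp only [Finset.mem_filter, Finset.mem_univ, true_and] at hζ ⊢
      exact hI.mapsTo hζ
    · intro x hx y hy hxy
      simp only [Finset.coe_filter, Finset.mem_univ, true_and, Set.mem_ofPred_eq] at hx hy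
      exact hI.injOn hx hy hxy
    · intro χ hχ
      simp only [Finset.coe_filter, Finset.mem_univ, true_and, Set.mem_ofPred_eq] at hχ
      obtain ⟨ζ, hζ, rfl⟩ := hI.surjOn hχ
      exact ⟨ζ, by simpa using hζ, rfl⟩
    · intro ζ _
      rfl
  have hL : ∑ η, a η * (ε η : ℂ) * (I η : G → ℂ) g
      = ∑ ψ, coef ψ * ∑ ζ, (gam X' δ' δ₀' ψ ζ : ℂ) * (ε ζ : ℂ) * (I ζ : G → ℂ) g := by
    calc ∑ η, a η * (ε η : ℂ) * (I η : G → ℂ) g
        = ∑ η, ∑ ψ, coef ψ * ((gam X' δ' δ₀' ψ η : ℂ) * (ε η : ℂ) * (I η : G → ℂ) g) := by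
          apply Finset.sum_congr rfl
          intro η _
          rw [ha η, Finset.sum_mul, Finset.sum_mul]
          apply Finset.sum_congr rfl
          intro ψ _
          ring
      _ = _ := by
          rw [Finset.sum_comm]
          apply Finset.sum_congr rfl
          intro ψ _
          rw [Finset.mul_sum]
  have hR : (fun h => ∑ η : IrrCharacter H, a η * (η : H → ℂ) h)
      = ∑ ψ, coef ψ • (fun h => ∑ ζ : IrrCharacter H, (gam X' δ' δ₀' ψ ζ : ℂ) * (ζ : H → ℂ) h) := by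
    funext h
    rw [Finset.sum_apply]
    simp only [Pi.smul_apply, smul_eq_mul]
    calc ∑ η : IrrCharacter H, a η * (η : H → ℂ) h
        = ∑ η : IrrCharacter H, ∑ ψ, coef ψ * ((gam X' δ' δ₀' ψ η : ℂ) * (η : H → ℂ) h) := by
          apply Finset.sum_congr rfl
          intro η _
          rw [ha η, Finset.sum_mul]
          apply Finset.sum_congr rfl
          intro ψ _
          ring
      _ = _ := by
          rw [Finset.sum_comm]
          apply Finset.sum_congr rfl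
          intro ψ _
          rw [Finset.mul_sum]
  rw [hL, hR, Cfsg.Agent.Lib.Helper19.indFun_sum, Finset.sum_apply]
  apply Finset.sum_congr rfl
  intro ψ _
  rw [Cfsg.Agent.Lib.Helper19.indFun_smul, Pi.smul_apply, smul_eq_mul]
  by_cases hψ : ψ ∈ Y'
  · rw [hstep ψ hψ]
  · have h0 : coef ψ = 0 := by rw [hcoef, if_neg hψ]
    rw [h0]; ring

end Cfsg.Agent.Lib.Helper83.PI5
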