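import Cfsg.Agent.Lib.Helper83.PI5.KKB
import Cfsg.Agent.Lib.Helper83.PI5.STAR0

set_option autoImplicit false
set_option linter.unusedSectionVars false
set_option linter.unusedVariables false

namespace Cfsg.Agent.Lib.Helper83.PI5

open scoped BigOperators
open Cfsg Cfsg.Agent.Lib.Helper81 Cfsg.Agent.Lib.Helper82.CY2U

variable {p : ℕ} {G : Type*} [Group G]

theorem star [Fintype G] (H : Subgroup G) [Fintype (IrrCharacter H)] [Fintype (IrrCharacter G)]
    {c X' Y' : Set (IrrCharacter H)} {e t : ℕ} {δ' : IrrCharacter H → ℤ} {δ₀' : ℤ}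
    (hs' : CY3.Shape p c X' Y' e t δ' δ₀') (hr' : blockRank p c = e)
    (hcard' : Nat.card c = e + t) {B : Set (IrrCharacter G)}
    {I : IrrCharacter H → IrrCharacter G} {ε : IrrCharacter H → ℤ} (hI : Set.BijOn I c B)
    (v : IrrCharacter H → IrrCharacter G → ℤ)
    (hv : ∀ η ∈ Y', ∀ g : G, indFun H (lin (fun ζ => (gam X' δ' δ₀' η ζ : ℂ))) g
      = ∑ χ : IrrCharacter G, (v η χ : ℂ) * (χ : G → ℂ) g)
    (v1 : ∀ η ∈ Y', ∀ χ, χ ∉ B → v η χ = 0)
    (hvI : ∀ η ∈ Y', ∀ ζ ∈ c, v η (I ζ) = ε ζ * gam X' δ' δ₀' η ζ) : Star p H c I ε := by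
  intro a ha g
  exact star_core H hs'.union hI v hv v1 hvI a (kk_span hs' hr' hcard' ha) g

end Cfsg.Agent.Lib.Helper83.PI5
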