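import Cfsg.Agent.Lib.Helper19.PI5A.PARTA
import Cfsg.Agent.Lib.Helper83.PI5.GRAM
import Cfsg.Agent.Lib.Helper83.PI5.GAMKK
import Cfsg.Agent.Lib.Helper83.PI5.KKB
import Cfsg.Agent.Lib.Helper83.PI5.STAR
import Cfsg.Agent.Lib.Helper83.PI5.COMB1
import Cfsg.Agent.Lib.Helper83.PI5.COMB2
import Cfsg.Agent.Lib.Helper82.PI5B.B1
import Cfsg.Agent.Lib.Helper82.PI5B.B2
import Cfsg.Agent.Lib.Helper82.PI5B.B3
import Cfsg.Agent.Lib.Helper21.PI5D.Main

set_option autoImplicit false
set_option linter.unusedSectionVars false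
set_option linter.unusedVariables false
set_option linter.style.haveILetI false

/-! # Ladder PI5 (S4635): the final assembly -/

namespace Cfsg.Agent.Lib.Helper83.PI5

open scoped BigOperators ComplexConjugate
open Cfsg Cfsg.Agent.Lib.Helper20 Cfsg.Agent.Lib.Helper80 Cfsg.Agent.Lib.Helper80.GA Cfsg.Agent.Lib.Helper81
open Cfsg.Agent.Lib.Helper82.CY2U Cfsg.Agent.Lib.Helper82.PI5B

universe u
variable {p : ℕ} [Fact p.Prime] {M : Ideal AlgInt} {G : Type u} [Group G] [Fintype G]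

theorem fin_lin_cl {H : Type*} [Group H] [Fintype H] [Fintype (IrrCharacter H)]
    (a : IrrCharacter H → ℂ) : IsClassFunction H (lin a) := by
  intro g h
  unfold lin
  apply Finset.sum_congr rfl
  intro η _
  rw [irr_classFunction η g h]

theorem fin_lin_eq {H : Type*} [Group H] [Fintype H] [Fintype (IrrCharacter H)]
    (a : IrrCharacter H → ℂ) : lin a = ∑ η : IrrCharacter H, a η • (η : H → ℂ) := by
  funext h
  simp [lin, Finset.sum_apply]

theorem fin_lin_coef {H : Type*} [Group H] [Fintype H] [Fintype (IrrCharacter H)]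
    (a : IrrCharacter H → ℂ) (χ : IrrCharacter H) : classInner (lin a) (χ : H → ℂ) = a χ := by
  classical
  rw [fin_lin_eq, classInner_sum_left]
  rw [Finset.sum_eq_single χ]
  · rw [classInner_smul_left, classInner_irr_self χ.2, mul_one]
  · intro η _ hη
    rw [classInner_smul_left, classInner_irr_ne η.2 χ.2 (fun h => hη (Subtype.ext h)), mul_zero]
  · intro h; exact absurd (Finset.mem_univ _) h

theorem fin_lin_inner {H : Type*} [Group H] [Fintype H] [Fintype (IrrCharacter H)]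
    (a a' : IrrCharacter H → ℂ) : classInner (lin a) (lin a') = ∑ η, a η * conj (a' η) := by
  rw [parseval (fin_lin_cl a) (fin_lin_cl a')]
  apply Finset.sum_congr rfl
  intro η _
  rw [fin_lin_coef, fin_lin_coef]

theorem fin (hM : IsPModular p M) {B : Set (IrrCharacter G)} (hB : IsPBlock M B)
    {P Z : Subgroup G} (hPD : IsDefectGroup p M B P) (hP1 : P ≠ ⊥) (hcyc : IsCyclic P)
    (hZ : Z ≤ P) (hZcard : Nat.card Z = p) {c : Set (IrrCharacter (Nn Z))}
    (hcD : IsDefectGroup p M c (P.subgroupOf (Nn Z))) (hc : IsInducedBlock M (Nn Z) c B) :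
    Nat.card c = Nat.card B ∧ blockRank p c = blockRank p B ∧
      ∃ (I : IrrCharacter (Nn Z) → IrrCharacter G) (ε : IrrCharacter (Nn Z) → ℤ),
        IsPerfectIsometry p M c B I ε := by
  classical
  haveI : Fintype (Nn Z) := Fintype.ofFinite _
  haveI : Finite (IrrCharacter G) := finite_irrCharacter
  haveI : Fintype (IrrCharacter G) := Fintype.ofFinite _
  haveI : Finite (IrrCharacter (Nn Z)) := finite_irrCharacter
  haveI : Fintype (IrrCharacter (Nn Z)) := Fintype.ofFinite _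
  obtain ⟨e, t, X, Y, δ, δ₀, X', Y', δ', δ₀', he, ht, hr, hr', hk, hk', hs, hs'⟩ :=
    Cfsg.Agent.Lib.Helper19.PI5A.partA hM hB hPD hP1 hcyc hZ hZcard hcD hc
  refine ⟨by rw [hk, hk'], by rw [hr, hr'], ?_⟩
  have hPp : IsPGroup p P := (isDef_of_isDefectGroup hM hB hPD).pgroup
  have hti : ∀ x ∈ AA p (Nn Z) P, ∀ g : G, g * x * g⁻¹ ∈ AA p (Nn Z) P → g ∈ Nn Z :=
    fun x hx g hg => ti_A hPp hcyc hZ hZcard rfl hx hg
  have hA : TIData p (Nn Z) c (AA p (Nn Z) P) :=
    { ti := hti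
      cent := fun x hx g hg => hti x hx g (by
        have h1 : g * x = x * g := Subgroup.mem_centralizer_singleton_iff.1 hg
        rw [h1, mul_inv_cancel_right]; exact hx)
      cpart := fun x hx u hu => cent_A hPp hcyc hZ hZcard rfl hx hu
      supp := fun a ha h hh => supp_A hM hc.1 hcD a ha.1 ha.2 h hh }
  let a : IrrCharacter (Nn Z) → IrrCharacter (Nn Z) → ℂ := fun η ζ => (gam X' δ' δ₀' η ζ : ℂ)
  have haK : ∀ η ∈ Y', a η ∈ KK p c := fun η hη => gam_mem hs' hη
  choose m hm using fun (ζ : IrrCharacter (Nn Z)) (χ : IrrCharacter G) => exists_mult (Nn Z) ζ χ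
  let v : IrrCharacter (Nn Z) → IrrCharacter G → ℤ := fun η χ => ∑ ζ, gam X' δ' δ₀' η ζ * m ζ χ
  have hvc : ∀ η χ, (v η χ : ℂ) = classInner (indFun (Nn Z) (lin (a η))) (χ : G → ℂ) := by
    intro η χ
    have h1 : indFun (Nn Z) (lin (a η))
        = ∑ ζ : IrrCharacter (Nn Z), a η ζ • indFun (Nn Z) (ζ : Nn Z → ℂ) := by
      funext g
      rw [Finset.sum_apply]
      exact lin_A (Nn Z) (a η) g
    rw [h1, classInner_sum_left]
    simp only [v]
    push_cast
    apply Finset.sum_congr rfl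
    intro ζ _
    rw [classInner_smul_left, hm]
  have hcl : ∀ η, IsClassFunction G (indFun (Nn Z) (lin (a η))) :=
    fun η => Cfsg.Agent.Lib.Helper19.indFun_isClassFunction (Nn Z) _
  have hv : ∀ η, ∀ g : G, indFun (Nn Z) (lin (a η)) g
      = ∑ χ : IrrCharacter G, (v η χ : ℂ) * (χ : G → ℂ) g := by
    intro η g
    conv_lhs => rw [eq_sum_classInner_smul (hcl η)]
    rw [Finset.sum_apply]
    apply Finset.sum_congr rfl
    intro χ _
    rw [Pi.smul_apply, smul_eq_mul, hvc]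
  have v1 : ∀ η ∈ Y', ∀ χ, χ ∉ B → v η χ = 0 := by
    intro η hη χ hχ
    have h1 := inb_A hM (Nn Z) hc (a η) (haK η hη).1
      (fun h hh u hu => hA.cpart _ (hA.supp _ (haK η hη) h hh) u hu) hχ
    have h2 : (v η χ : ℂ) = 0 := by rw [hvc]; exact h1
    exact_mod_cast h2
  have v3 : ∀ η ∈ Y', ∀ η' ∈ Y', ∑ χ, v η χ * v η' χ
      = (e : ℤ) + @ite ℤ (η = η') (Classical.propDecidable _) 1 0 := by
    intro η hη η' hη'
    have h1 := iso_A (Nn Z) (AA p (Nn Z) P) hti (lin (a η)) (lin (a η')) (fin_lin_cl _)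
      (hA.supp _ (haK η hη)) (hA.supp _ (haK η' hη'))
    rw [fin_lin_inner, parseval (hcl η) (hcl η')] at h1
    have h2 := gam_gram hs'.disj hs'.cardX hs'.sign hs'.sign0 hη hη'
    have h3 : ((∑ χ, v η χ * v η' χ : ℤ) : ℂ)
        = ((∑ ζ, gam X' δ' δ₀' η ζ * gam X' δ' δ₀' η' ζ : ℤ) : ℂ) := by
      rw [Int.cast_sum, Int.cast_sum]
      calc ∑ χ, ((v η χ * v η' χ : ℤ) : ℂ)
          = ∑ χ : IrrCharacter G, classInner (indFun (Nn Z) (lin (a η))) (χ : G → ℂ)
              * conj (classInner (indFun (Nn Z) (lin (a η'))) (χ : G → ℂ)) := by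
            apply Finset.sum_congr rfl
            intro χ _
            rw [← hvc, ← hvc, Int.cast_mul, map_intCast]
        _ = ∑ ζ, a η ζ * conj (a η' ζ) := h1
        _ = _ := by
            apply Finset.sum_congr rfl
            intro ζ _
            simp only [a]
            rw [map_intCast, Int.cast_mul]
    have h4 : (∑ χ, v η χ * v η' χ) = ∑ ζ, gam X' δ' δ₀' η ζ * gam X' δ' δ₀' η' ζ := by
      exact_mod_cast h3
    exact h4.trans h2
  have v2 : ∀ η ∈ Y', ∀ χ ∈ X, v η χ = δ χ * δ₀ * ∑ ψ, if ψ ∈ Y then v η ψ else 0 := by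
    intro η hη χ hχ
    have hK : (fun χ => (v η χ : ℂ)) ∈ KK p B := by
      refine ⟨fun χ hχ => by simp [v1 η hη χ hχ], fun g hg => ?_⟩
      rw [← hv η g]
      exact ind_reg (Nn Z) _ (fun h hh => (haK η hη).2 h hh) hg
    have h1 := kk_shape hs hr hk hK χ hχ
    have h2 : ((v η χ : ℤ) : ℂ) = ((δ χ * δ₀ * ∑ ψ, if ψ ∈ Y then v η ψ else 0 : ℤ) : ℂ) := by
      rw [h1]
      push_cast
      rfl
    exact_mod_cast h2
  obtain ⟨I, ε, hI, heps, hvI⟩ : ∃ (I : IrrCharacter (Nn Z) → IrrCharacter G)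
      (ε : IrrCharacter (Nn Z) → ℤ), Set.BijOn I c B ∧ (∀ ζ ∈ c, ε ζ = 1 ∨ ε ζ = -1) ∧
      ∀ η ∈ Y', ∀ ζ ∈ c, v η (I ζ) = ε ζ * gam X' δ' δ₀' η ζ := by
    rcases Nat.lt_or_ge e 2 with h | h
    · have he1 : e = 1 := by omega
      subst he1
      exact comb1 ht hs'.union hs'.disj hs.union hs.disj hs'.cardX hs.cardX hs'.cardY hs.cardY
        hs'.sign hs'.sign0 hs.sign hs.sign0 v v1 v2
        (fun η hη η' hη' => by rw [v3 η hη η' hη', Nat.cast_one])
    · exact comb2 h hs'.union hs'.disj hs.union hs.disj hs'.cardX hs.cardX hs'.cardY hs.cardY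
        hs'.sign hs'.sign0 hs.sign hs.sign0 v v1 v2 v3
  have hstar : Star p (Nn Z) c I ε := star (Nn Z) hs' hr' hk' hI v (fun η _ g => hv η g) v1 hvI
  have hfin : Module.finrank ℂ (KK p c) = Module.finrank ℂ (KK p B) := by
    have h1 := finrank_KK p c
    have h2 := finrank_KK p B
    omega
  exact ⟨I, ε, hI, heps,
    Cfsg.Agent.Lib.Helper21.PI5D.perfect (Nn Z) hM hB hc.1 hA hI heps hstar hfin⟩

end Cfsg.Agent.Lib.Helper83.PI5
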